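import Cfsg.Agent.H109.S8.CovCore
import Cfsg.Agent.H672.Over
import Cfsg.Agent.H621.SymDeg.Chars
import Cfsg.Agent.Blocks.BlockKer
import Cfsg.Agent.H595.Central

/-!
# S4908, COVER: a faithful character of a perfect central extension below an induced linear character (helper456)

* `exists_ind` : `N` perfect, `V` central of prime order `r`, `N / V` simple, `V ≤ H`, `H = M × V`: there is an irreducible
  character of `N`, nontrivial on `V`, of degree `d` with `r ∣ d`, `m + 1 ≤ d ≤ |N : H|`, if all the nontrivial irreducible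
  characters of `M` have degree at least `m`.
-/

set_option autoImplicit false

namespace Cfsg.Agent.H456.S8

open Cfsg Subgroup Cfsg.Agent.Characters.Core
open Cfsg.Agent.H672 (Over over_iff over_comp_iff exists_over_subtype)
open scoped commutatorElement

universe u

variable {N : Type u} [Group N] [Finite N]

theorem exists_ind (V : Subgroup N) [hVn : V.Normal] {r : ℕ} (hr : r.Prime) (hV : Nat.card V = r) (hc : V ≤ center N)
    (hp : commutator N = ⊤) (hs : IsSimpleGroup (N ⧸ V)) (H M : Subgroup N) (hVH : V ≤ H) (hMH : M ≤ H)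
    (hMn : (M.subgroupOf H).Normal) (hMV : M ⊓ V = ⊥) (hMVH : H ≤ M ⊔ V) (hM1 : M ≠ ⊥) {m : ℕ}
    (hm : ∀ β : M → ℂ, IsIrrCharacter M β → β ≠ 1 → m ≤ charDegree β) :
    ∃ (χ : N → ℂ) (d : ℕ), IsIrrCharacter N χ ∧ (∃ v ∈ V, χ v ≠ χ 1) ∧ χ 1 = d ∧ r ∣ d ∧ m + 1 ≤ d ∧ d ≤ H.index := by
  classical
  have hb : V ≠ ⊥ := by
    rintro rfl
    rw [Subgroup.card_bot] at hV
    exact hr.ne_one hV.symm
  obtain ⟨l, v0, hv0⟩ := Cfsg.Agent.H109.S8.exists_lin_ne V hb hc
  -- the linear character of `H`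
  let f : V →* H ⧸ M.subgroupOf H := (QuotientGroup.mk' (M.subgroupOf H)).comp (Subgroup.inclusion hVH)
  have hf : Function.Bijective f := by
    constructor
    · rw [injective_iff_map_eq_one]
      intro v hv
      have h1 : Subgroup.inclusion hVH v ∈ M.subgroupOf H := (QuotientGroup.eq_one_iff _).1 hv
      have h2 : (v : N) ∈ M := Subgroup.mem_subgroupOf.1 h1
      have h3 : (v : N) ∈ M ⊓ V := ⟨h2, v.2⟩
      rw [hMV, Subgroup.mem_bot] at h3
      exact Subtype.ext h3
    · intro x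
      obtain ⟨h, rfl⟩ := QuotientGroup.mk'_surjective (M.subgroupOf H) x
      have h1 : (h : N) ∈ M ⊔ V := hMVH h.2
      rw [Subgroup.mem_sup_of_normal_right] at h1
      obtain ⟨a, ha, v, hv, hav⟩ := h1
      refine ⟨⟨v, hv⟩, ?_⟩
      show QuotientGroup.mk' (M.subgroupOf H) (Subgroup.inclusion hVH ⟨v, hv⟩) = _
      rw [QuotientGroup.mk'_apply, QuotientGroup.mk'_apply, QuotientGroup.eq]
      rw [Subgroup.mem_subgroupOf]
      show (v : N)⁻¹ * (h : N) ∈ M
      rw [← hav]
      have h2 : v⁻¹ * (a * v) = a := by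
        rw [mem_center_iff.1 (hc hv) a, inv_mul_cancel_left]
      rwa [h2]
  let e : V ≃* H ⧸ M.subgroupOf H := MulEquiv.ofBijective f hf
  let μ : H →* ℂˣ := (l.comp e.symm.toMonoidHom).comp (QuotientGroup.mk' (M.subgroupOf H))
  have hμV : ∀ v : V, μ (Subgroup.inclusion hVH v) = l v := by
    intro v
    show l (e.symm (QuotientGroup.mk' (M.subgroupOf H) (Subgroup.inclusion hVH v))) = l v
    congr 1
    rw [MulEquiv.symm_apply_eq]
    rfl
  have hμM : ∀ a : M, μ (Subgroup.inclusion hMH a) = 1 := by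
    intro a
    show l (e.symm (QuotientGroup.mk' (M.subgroupOf H) (Subgroup.inclusion hMH a))) = 1
    have h1 : QuotientGroup.mk' (M.subgroupOf H) (Subgroup.inclusion hMH a) = 1 := by
      rw [QuotientGroup.mk'_apply, QuotientGroup.eq_one_iff]
      exact Subgroup.mem_subgroupOf.2 a.2
    rw [h1, map_one, map_one]
  let θ : H → ℂ := fun h => (μ h : ℂ)
  have hθ : IsIrrCharacter H θ := Cfsg.Agent.H595.Central.isIrr_hom μ
  have hθ1 : θ 1 = 1 := by show ((μ 1 : ℂˣ) : ℂ) = 1; rw [map_one, Units.val_one]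
  obtain ⟨χ, hχ, hover⟩ := exists_over_subtype H hθ
  have hd := Blocks.Basic.irr_one_eq_charDegree hχ
  set d := charDegree χ with hddef
  let _ := Fintype.ofFinite N
  let _ := Fintype.ofFinite H
  let _ := Fintype.ofFinite V
  let _ := Fintype.ofFinite M
  -- the degree is at most the index
  have hle : d ≤ H.index := by
    have h1 := Cfsg.Agent.H621.SymDeg.degree_le_index_mul H hχ hθ ((over_iff _ _ _).1 hover) (a := d) (b := 1) hd
      (by rw [hθ1, Nat.cast_one])
    rwa [mul_one] at h1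
  -- the restriction to `V`
  have hself : ∀ {A : Type u} [Group A] [Fintype A] {ξ : A → ℂ}, IsIrrCharacter A ξ → classInner ξ ξ ≠ 0 := by
    intro A _ _ ξ hξ
    rw [classInner_irr_self hξ]
    exact one_ne_zero
  have hoV : Over (H.subtype.comp (Subgroup.inclusion hVH)) χ (fun v : V => (l v : ℂ)) := by
    rw [over_comp_iff _ _ (isIrr_isCharacter hχ) (Cfsg.Agent.H595.Central.isIrr_hom l)]
    refine ⟨θ, hθ, hover, ?_⟩
    rw [over_iff]
    have h1 : θ ∘ (Subgroup.inclusion hVH) = fun v : V => (l v : ℂ) := by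
      funext v
      show ((μ (Subgroup.inclusion hVH v) : ℂˣ) : ℂ) = _
      rw [hμV]
    rw [h1]
    exact hself (Cfsg.Agent.H595.Central.isIrr_hom l)
  have hcV : ∀ v : V, χ v = χ 1 * l v := by
    intro v
    have h1 := Cfsg.Agent.H595.Central.over_central (H.subtype.comp (Subgroup.inclusion hVH)) (fun n => hc n.2) ⟨χ, hχ⟩ l
      ((over_iff _ _ _).1 hoV) 1 v
    rw [one_mul] at h1
    exact h1
  have hne := isIrr_apply_one_ne_zero hχ
  have hfaith : χ v0 ≠ χ 1 := by
    intro h1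
    rw [hcV v0] at h1
    have h2 : χ 1 * (l v0 : ℂ) = χ 1 * 1 := by rw [h1, mul_one]
    exact hv0 (Units.ext (mul_left_cancel₀ hne h2))
  have hrd : r ∣ d := by
    have h2 : (l v0) ^ r = 1 := by rw [← map_pow, ← hV, pow_card_eq_one', map_one]
    haveI : Fact r.Prime := ⟨hr⟩
    have h3 : orderOf (l v0) = r := orderOf_eq_prime h2 hv0
    have h4 := Cfsg.Agent.H388.AN.pow_deg_eq_one hp hχ hd (hc v0.2) (hcV v0)
    rw [← h3]
    apply orderOf_dvd_of_pow_eq_one
    apply Units.ext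
    rw [Units.val_pow_eq_pow_val, Units.val_one]
    exact h4
  -- the restriction to `M`
  have hoM : Over (H.subtype.comp (Subgroup.inclusion hMH)) χ (1 : M → ℂ) := by
    rw [over_comp_iff _ _ (isIrr_isCharacter hχ) isIrr_one]
    refine ⟨θ, hθ, hover, ?_⟩
    rw [over_iff]
    have h1 : θ ∘ (Subgroup.inclusion hMH) = (1 : M → ℂ) := by
      funext v
      show ((μ (Subgroup.inclusion hMH v) : ℂˣ) : ℂ) = _
      rw [hμM, Units.val_one, Pi.one_apply]
    rw [h1]
    exact hself isIrr_one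
  have hfM := finite_irr (G := M)
  let _ := Fintype.ofFinite (IrrCharacter M)
  set j : M →* N := H.subtype.comp (Subgroup.inclusion hMH) with hj
  have hjx : ∀ x : M, j x = (x : N) := fun x => rfl
  obtain ⟨c, hc1, hc2⟩ := CharDeep.CliffordCorr.exists_nat_coeffs
    (isCharacter_comp j (isIrr_isCharacter hχ) : IsCharacter M (χ ∘ j))
  set o : IrrCharacter M := ⟨1, isIrr_one⟩ with ho
  have hco : c o ≠ 0 := by
    intro h0
    have h1 := hc2 o
    rw [h0, Nat.cast_zero] at h1
    exact (over_iff _ _ _).1 hoM h1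
  have hex : ∃ β : IrrCharacter M, β ≠ o ∧ c β ≠ 0 := by
    by_contra hcon
    push Not at hcon
    -- `M` is in the kernel
    have h1 : ∀ x : M, χ x = χ 1 := by
      have h2 : ∀ x : M, χ x = (c o : ℂ) := by
        intro x
        have h3 := congrFun hc1 x
        rw [Finset.sum_apply, Finset.sum_eq_single o] at h3
        · rw [Pi.smul_apply, smul_eq_mul] at h3
          have h4 : (o : M → ℂ) x = 1 := rfl
          rw [h4, mul_one] at h3
          exact h3
        · intro β _ hβ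
          rw [hcon β hβ, Nat.cast_zero, zero_smul, Pi.zero_apply]
        · intro h; exact absurd (Finset.mem_univ _) h
      intro x
      rw [h2 x]
      have := h2 1
      rw [Subgroup.coe_one] at this
      exact this.symm
    obtain ⟨K, hK, hKm⟩ := Cfsg.Agent.Blocks.BlockKer.exists_kernel hχ
    have hMK : M ≤ K := fun x hx => (hKm x).2 (h1 ⟨x, hx⟩)
    have hmap : K.map (QuotientGroup.mk' V) = ⊤ := by
      have hn : (K.map (QuotientGroup.mk' V)).Normal := hK.map _ (QuotientGroup.mk'_surjective V)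
      rcases hs.eq_bot_or_eq_top_of_normal _ hn with h2 | h2
      · exfalso
        apply hM1
        rw [eq_bot_iff]
        intro x hx
        have h3 : QuotientGroup.mk' V x ∈ K.map (QuotientGroup.mk' V) := ⟨x, hMK hx, rfl⟩
        rw [h2, Subgroup.mem_bot] at h3
        have h4 : x ∈ V := (QuotientGroup.eq_one_iff _).1 h3
        have h5 : x ∈ M ⊓ V := ⟨hx, h4⟩
        rwa [hMV] at h5
      · exact h2
    have hKtop : K = ⊤ := by
      rw [eq_top_iff, ← hp, _root_.commutator_def, Subgroup.commutator_le]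
      intro a _ b _
      have key : ∀ x : N, ∃ k ∈ K, ∃ v ∈ V, x = k * v := by
        intro x
        have h2 : QuotientGroup.mk' V x ∈ K.map (QuotientGroup.mk' V) := by rw [hmap]; trivial
        obtain ⟨k, hk, hkx⟩ := h2
        rw [QuotientGroup.mk'_apply, QuotientGroup.mk'_apply, QuotientGroup.eq] at hkx
        exact ⟨k, hk, _, hkx, by rw [mul_inv_cancel_left]⟩
      obtain ⟨k1, hk1, v1, hv1, rfl⟩ := key a
      obtain ⟨k2, hk2, v2, hv2, rfl⟩ := key b
      have c1 := mem_center_iff.1 (hc hv1)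
      have c2 := mem_center_iff.1 (hc hv2)
      have h3 : ⁅k1 * v1, k2 * v2⁆ = ⁅k1, k2⁆ := by
        rw [commutatorElement_def, commutatorElement_def]
        calc k1 * v1 * (k2 * v2) * (k1 * v1)⁻¹ * (k2 * v2)⁻¹
            = k1 * (v1 * k2) * v2 * v1⁻¹ * k1⁻¹ * v2⁻¹ * k2⁻¹ := by group
          _ = k1 * (k2 * v1) * v2 * v1⁻¹ * k1⁻¹ * v2⁻¹ * k2⁻¹ := by rw [c1 k2]
          _ = k1 * k2 * (v1 * v2) * v1⁻¹ * k1⁻¹ * v2⁻¹ * k2⁻¹ := by group
          _ = k1 * k2 * (v2 * v1) * v1⁻¹ * k1⁻¹ * v2⁻¹ * k2⁻¹ := by rw [c1 v2]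
          _ = k1 * k2 * (v2 * k1⁻¹) * v2⁻¹ * k2⁻¹ := by group
          _ = k1 * k2 * (k1⁻¹ * v2) * v2⁻¹ * k2⁻¹ := by rw [c2 k1⁻¹]
          _ = _ := by group
      rw [h3]
      exact K.mul_mem (K.mul_mem (K.mul_mem hk1 hk2) (K.inv_mem hk1)) (K.inv_mem hk2)
    exact hfaith ((hKm v0).1 (by rw [hKtop]; trivial))
  obtain ⟨β, hβ, hcβ⟩ := hex
  have hβ1 : m ≤ charDegree (β : M → ℂ) := hm β β.2 fun h => hβ (Subtype.ext h)
  have hsum : d = ∑ ξ : IrrCharacter M, c ξ * charDegree (ξ : M → ℂ) := by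
    have h3 := congrFun hc1 1
    rw [Function.comp_apply, map_one, hd] at h3
    simp only [Finset.sum_apply, Pi.smul_apply, smul_eq_mul] at h3
    have h4 : ((d : ℕ) : ℂ) = ((∑ ξ : IrrCharacter M, c ξ * charDegree (ξ : M → ℂ) : ℕ) : ℂ) := by
      push_cast
      rw [h3]
      exact Finset.sum_congr rfl fun ξ _ => by rw [Blocks.Basic.irr_one_eq_charDegree ξ.2]
    exact_mod_cast h4
  have hge : m + 1 ≤ d := by
    have h1 : ∑ ξ ∈ ({o, β} : Finset (IrrCharacter M)), c ξ * charDegree (ξ : M → ℂ) ≤ d := by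
      rw [hsum]
      exact Finset.sum_le_sum_of_subset_of_nonneg (Finset.subset_univ _) (fun _ _ _ => Nat.zero_le _)
    rw [Finset.sum_pair hβ.symm] at h1
    have h2 : charDegree (o : M → ℂ) = 1 := Blocks.Basic.charDegree_of_eq (by
      show (1 : M → ℂ) 1 = _
      rw [Pi.one_apply, Nat.cast_one])
    rw [h2, mul_one] at h1
    have h3 : 1 ≤ c o := Nat.one_le_iff_ne_zero.2 hco
    have h4 : charDegree (β : M → ℂ) ≤ c β * charDegree (β : M → ℂ) :=
      Nat.le_mul_of_pos_left _ (Nat.pos_of_ne_zero hcβ)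
    omega
  exact ⟨χ, d, hχ, ⟨v0, v0.2, hfaith⟩, hd, hrd, hge, hle⟩

end Cfsg.Agent.H456.S8
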